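import Cfsg.Agent.H221.Sp.Deg
import Cfsg.Agent.H546.Sp.KillInst

/-!
# TEAM SPEC-ALT, task MGE: the degree of the top (helper221)

`kill` : the structure `Kill` from the theorems of helper546; `m16` ... `m28`, `primes15`.
-/

set_option autoImplicit false

namespace Cfsg.Agent.H221.Sp

open Cfsg Cfsg.Agent.H357.Sp

variable {ε n m : ℕ} {G : Type} [Group G] [Finite G] {N : Subgroup G} [N.Normal]

theorem kill (h : Spec ε n G) (hT : Top m N) : Kill n m N where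
  seven hm hn _ hq hqm hq7 hqn := Cfsg.Agent.H546.Sp.not_dvd_seven h hT hm hn hq hqm hq7 hqn
  of_seven ht h2 h7 hm hn hnt := Cfsg.Agent.H546.Sp.not_dvd_of_seven h hT ht h2 h7 hm hn hnt
  five hm hn _ hq hqm hq5 hqn := Cfsg.Agent.H546.Sp.not_dvd_five h hT hm hn hq hqm hq5 hqn
  sixteen ht h17 hm hn hnt := Cfsg.Agent.H546.Sp.not_dvd_sixteen h hT ht h17 hm hn hnt
  eleven hm hn _ hq hqm hq11 hqn := Cfsg.Agent.H546.Sp.not_dvd_eleven h hT hm hn hq hqm hq11 hqn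

theorem m16 (h : Spec ε 16 G) (hT : Top m N) (hm : 13 ≤ m) : 16 ≤ m := m16' h hT (kill h hT) hm

theorem m21 (h : Spec ε 21 G) (hT : Top m N) (hm : 19 ≤ m) : 20 ≤ m := m21' h hT (kill h hT) hm

theorem m22 (h : Spec ε 22 G) (hT : Top m N) (hm : 19 ≤ m) : 22 ≤ m := m22' h hT (kill h hT) hm

theorem m25 (h : Spec ε 25 G) (hT : Top m N) (hm : 23 ≤ m) : 24 ≤ m := m25' h hT (kill h hT) hm

theorem m26 (h : Spec ε 26 G) (hT : Top m N) (hm : 23 ≤ m) : 26 ≤ m := m26' h hT (kill h hT) hm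

theorem m27 (h : Spec ε 27 G) (hT : Top m N) (hm : 23 ≤ m) : 26 ≤ m := m27' h hT (kill h hT) hm

theorem m28 (h : Spec ε 28 G) (hT : Top m N) (hm : 23 ≤ m) : 28 ≤ m := m28' h hT (kill h hT) hm

theorem primes15 (h : Spec ε 15 G) (hT : Top 13 N) :
    ∀ p : ℕ, p.Prime → p ∣ Nat.card ↥N → p = 2 ∨ p = 3 := primes15' h hT (kill h hT)

end Cfsg.Agent.H221.Sp
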